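import Cfsg.Agent.H80.J1Order.Main

/-!
# The Sylow data of a simple group of order 175560
-/

namespace Cfsg.Agent.H80.J1Unique

open Cfsg.Agent.H80.J1Order

/-- The values admitted for a single prime. -/
def good (t : ℕ × ℕ × ℕ) : Bool :=
  if t.1 == 3 then t.2.1 == 2926 && t.2.2 == 10
  else if t.1 == 5 then t.2.1 == 2926 && (t.2.2 == 3 || t.2.2 == 6)
  else if t.1 == 7 then t.2.1 == 4180
  else if t.1 == 11 then t.2.1 == 1596 || t.2.1 == 210
  else t.2.1 == 1540 || t.2.1 == 210

/-- Every surviving branch consists of admitted values. -/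
def survive (o : ℕ) : List ℕ → List (ℕ × ℕ × ℕ) → Bool
  | [], acc => acc.all good
  | q :: qs, acc => (cand o q).all fun t =>
      !admissible o (q, t) acc || survive o qs ((q, t) :: acc)

theorem survive_all : survive 175560 [19, 11, 7, 5, 3] [] = true := by
  decide +kernel

universe u

variable {G : Type u} [Group G] [Finite G]

theorem good_of_survive [IsSimpleGroup G] (hG : ¬ IsMulCommutative G) (h19 : 19 ∣ Nat.card G)
    (hdiv : Nat.card G ∣ 175560) : ∀ (qs acc : List ℕ), (qs ++ acc).Nodup →
    (∀ q ∈ qs ++ acc, Once G q) →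
    survive (Nat.card G) qs (acc.map (datum G)) = true →
    ∀ q ∈ qs ++ acc, good (datum G q) = true
  | [], acc, _, _, h => fun q hq => by
    rw [survive, List.all_eq_true] at h
    exact h _ (List.mem_map_of_mem (by simpa using hq))
  | q :: qs, acc, hnd, hl, hs => by
    have hq : Once G q := hl q (by simp)
    simp only [survive, List.all_eq_true] at hs
    have h := hs _ (mem_cand hG h19 hdiv hq)
    simp only [Bool.or_eq_true, Bool.not_eq_true'] at h
    have hperm : (qs ++ (q :: acc)).Perm (q :: qs ++ acc) := List.perm_middle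
    have hqacc : q ∉ acc := fun h => (List.nodup_cons.mp hnd).1 (List.mem_append_right _ h)
    rcases h with h | h
    · exfalso
      rw [← Bool.not_eq_true] at h
      refine h ?_
      simp only [admissible, Bool.and_eq_true, List.all_eq_true]
      refine ⟨fun s hs => ?_, fun S hS => ?_⟩
      · obtain ⟨p, hp, rfl⟩ := List.mem_map.mp hs
        exact compat_true hdiv (hl p (by simp [hp])) hq (fun e => hqacc (e ▸ hp))
      · rw [List.sublists_map, List.mem_map] at hS
        obtain ⟨l, hlsub, rfl⟩ := hS
        have hsub : l.Sublist acc := List.mem_sublists.mp hlsub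
        change (!apart ((q :: l).map (datum G)) || decide ((((q :: l).map (datum G)).map weight).sum
          < Nat.card G)) = true
        rw [Bool.or_eq_true, Bool.not_eq_true', decide_eq_true_eq, ← Bool.not_eq_true]
        refine (em _).symm.imp id fun hap => ?_
        have hnd' : (q :: l).Nodup := List.nodup_cons.mpr ⟨fun h => hqacc (hsub.subset h),
          ((List.nodup_cons.mp hnd).2.sublist (List.sublist_append_right qs acc)).sublist hsub⟩
        have := sum_weight_lt (q :: l) hnd' (fun p hp => hl p (by
            rcases List.mem_cons.mp hp with rfl | hp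
            · simp
            · simp [hsub.subset hp])) (apart_spec _ hap)
        simpa [List.map_map, Function.comp_def, weight, datum] using this
    · intro p hp
      exact good_of_survive hG h19 hdiv qs (q :: acc) (hperm.nodup_iff.mpr hnd)
        (fun r hr => hl r (hperm.subset hr)) (by rw [List.map_cons]; exact h) p (hperm.symm.subset hp)

/-- The data of a simple group of order 175560. -/
structure SylowData (G : Type u) [Group G] [Finite G] : Prop where
  n3 : Nat.card (Sylow 3 G) = 2926
  c3 : cen G 3 = 10
  n5 : Nat.card (Sylow 5 G) = 2926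
  c5 : cen G 5 = 3 ∨ cen G 5 = 6
  n7 : Nat.card (Sylow 7 G) = 4180
  n11 : Nat.card (Sylow 11 G) = 1596 ∨ Nat.card (Sylow 11 G) = 210
  n19 : Nat.card (Sylow 19 G) = 1540 ∨ Nat.card (Sylow 19 G) = 210

theorem once_of_mem {r : ℕ} (hG : Nat.card G = 175560) (hr : r ∈ [19, 11, 7, 5, 3]) : Once G r := by
  simp only [List.mem_cons, List.not_mem_nil, or_false] at hr
  rcases hr with rfl | rfl | rfl | rfl | rfl <;>
    exact ⟨by norm_num, by rw [hG]; norm_num, by rw [hG]; norm_num⟩

theorem sylowData [IsSimpleGroup G] (hG : ¬ IsMulCommutative G) (hc : Nat.card G = 175560) :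
    SylowData G := by
  have h := good_of_survive hG (by rw [hc]; norm_num) (dvd_of_eq hc) [19, 11, 7, 5, 3] []
    (by decide) (fun q hq => once_of_mem hc (by simpa using hq))
    (by rw [hc]; exact survive_all)
  have h3 := h 3 (by simp)
  have h5 := h 5 (by simp)
  have h7 := h 7 (by simp)
  have h11 := h 11 (by simp)
  have h19 := h 19 (by simp)
  simp [good, datum] at h3 h5 h7 h11 h19
  exact ⟨h3.1, h3.2, h5.1, h5.2, h7, h11, h19⟩

end Cfsg.Agent.H80.J1Unique
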