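import Cfsg.Agent.H80.J1Unique.Data

/-!
# Odd normal subgroups of subgroups of 2-power index multiples of eight
-/

namespace Cfsg.Agent.H80.J1Unique

open Subgroup Cfsg.Agent.H80.J1Order

universe u

variable {G : Type u} [Group G] [Finite G]

theorem card_normalizer_mul {r : ℕ} [Fact r.Prime] (P : Sylow r G) :
    Nat.card (Sylow r G) * Nat.card (normalizer ((P : Subgroup G) : Set G)) = Nat.card G :=
  H30.card_sylow_mul_normalizer r P

/-- Subgroups of prime order `r` are Sylow subgroups. -/
theorem exists_sylow_eq {r : ℕ} (hr : Once G r) (Q : Subgroup G) (hQ : Nat.card Q = r) :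
    ∃ P : Sylow r G, (P : Subgroup G) = Q := by
  have := Fact.mk hr.prime
  refine ⟨Sylow.ofCard Q ?_, Sylow.coe_ofCard ..⟩
  rw [hQ, ← (default : Sylow r G).card_eq_multiplicity, hr.card_sylow]

/-- The orders of the normalizers of subgroups of odd prime order. -/
theorem card_normalizer_cases (hd : SylowData G) (hc : Nat.card G = 175560) {r : ℕ}
    (hr : r ∈ [19, 11, 7, 5, 3]) (Q : Subgroup G) (hQ : Nat.card Q = r) :
    (r = 3 ∧ Nat.card (normalizer (Q : Set G)) = 60) ∨
    (r = 5 ∧ Nat.card (normalizer (Q : Set G)) = 60) ∨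
    (r = 7 ∧ Nat.card (normalizer (Q : Set G)) = 42) ∨
    (r = 11 ∧ (Nat.card (normalizer (Q : Set G)) = 110 ∨ Nat.card (normalizer (Q : Set G)) = 836)) ∨
    (r = 19 ∧ (Nat.card (normalizer (Q : Set G)) = 114 ∨ Nat.card (normalizer (Q : Set G)) = 836)) := by
  have ho := once_of_mem hc hr
  have := Fact.mk ho.prime
  obtain ⟨P, rfl⟩ := exists_sylow_eq ho Q hQ
  have h := card_normalizer_mul P
  rw [hc] at h
  simp only [List.mem_cons, List.not_mem_nil, or_false] at hr
  rcases hr with rfl | rfl | rfl | rfl | rfl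
  · rcases hd.n19 with e | e <;> rw [e] at h <;> omega
  · rcases hd.n11 with e | e <;> rw [e] at h <;> omega
  · rw [hd.n7] at h; omega
  · rw [hd.n5] at h; omega
  · rw [hd.n3] at h; omega

theorem mem_oddPrimes (hc : Nat.card G = 175560) {r : ℕ} (hr : r.Prime) (h2 : r ≠ 2)
    (hd : r ∣ Nat.card G) : r ∈ [19, 11, 7, 5, 3] := by
  rw [hc, show (175560 : ℕ) = 2 ^ 3 * (3 * (5 * (7 * (11 * 19)))) by norm_num] at hd
  rcases hr.dvd_mul.mp hd with h | h
  · exact absurd ((Nat.prime_dvd_prime_iff_eq hr Nat.prime_two).mp (hr.dvd_of_dvd_pow h)) h2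
  rcases hr.dvd_mul.mp h with h | h
  · simp [(Nat.prime_dvd_prime_iff_eq hr (by norm_num)).mp h]
  rcases hr.dvd_mul.mp h with h | h
  · simp [(Nat.prime_dvd_prime_iff_eq hr (by norm_num)).mp h]
  rcases hr.dvd_mul.mp h with h | h
  · simp [(Nat.prime_dvd_prime_iff_eq hr (by norm_num)).mp h]
  rcases hr.dvd_mul.mp h with h | h
  · simp [(Nat.prime_dvd_prime_iff_eq hr (by norm_num)).mp h]
  · simp [(Nat.prime_dvd_prime_iff_eq hr (by norm_num)).mp h]

/-- A subgroup of order divisible by eight normalizes no nontrivial odd-order subgroup of it. -/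
theorem eq_bot_of_odd_normalized (hd : SylowData G) (hc : Nat.card G = 175560) (H N : Subgroup G)
    (hNH : N ≤ H) (hn : H ≤ normalizer (N : Set G)) (h8 : 8 ∣ Nat.card H)
    (hodd : Odd (Nat.card N)) : N = ⊥ := by
  by_contra hne
  obtain ⟨r, hr, hrN⟩ := Nat.exists_prime_and_dvd (n := Nat.card N)
    (fun h => hne (Subgroup.card_eq_one.mp h))
  have h2 : r ≠ 2 := fun h => Nat.not_even_iff_odd.mpr hodd (even_iff_two_dvd.mpr (h ▸ hrN))
  have hr' := mem_oddPrimes hc hr h2 (hrN.trans (card_subgroup_dvd_card N))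
  have ho := once_of_mem hc hr'
  have := Fact.mk hr
  let N' := N.subgroupOf H
  have hN' : N'.Normal := normal_subgroupOf_of_le_normalizer hn
  have hcard : Nat.card N' = Nat.card N := Nat.card_congr (subgroupOfEquivOfLe hNH).toEquiv
  let P : Sylow r N' := default
  have hsup := Sylow.normalizer_sup_eq_top P
  set Q := (P : Subgroup N').map N'.subtype with hQ
  have hP : Nat.card (P : Subgroup N') = r := by
    refine Once.card_sylow ⟨hr, hcard ▸ hrN, fun h => ho.not_sq ?_⟩ P
    exact (hcard ▸ h).trans (card_subgroup_dvd_card N)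
  have hQc : Nat.card Q = r := by
    rw [hQ, ← Nat.card_congr ((P : Subgroup N').equivMapOfInjective _ N'.subtype_injective).toEquiv, hP]
  have h1 : 8 ∣ Nat.card (normalizer (Q : Set H)) := by
    have h3 : (normalizer (Q : Set H)).index ∣ Nat.card N' := by
      have e1 := card_mul_index (normalizer (Q : Set H))
      have e2 : N'.relIndex (normalizer (Q : Set H)) = N'.index := by
        rw [← relIndex_sup_right, hsup, relIndex_top_right]
      have e3 := card_mul_index N'
      have e4 : N'.relIndex (normalizer (Q : Set H)) ∣ Nat.card (normalizer (Q : Set H)) :=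
        relIndex_dvd_card ..
      obtain ⟨a, ha⟩ := e4
      rw [e2] at ha
      refine ⟨a, ?_⟩
      have hi : 0 < N'.index := Nat.pos_of_ne_zero index_ne_zero_of_finite
      apply Nat.eq_of_mul_eq_mul_left hi
      rw [mul_comm, e3, ← e1, ha]; ring
    have h5 : Nat.Coprime 8 (normalizer (Q : Set H)).index := by
      have : Odd (normalizer (Q : Set H)).index := Odd.of_dvd_nat (hcard ▸ hodd) h3
      exact (Nat.coprime_pow_left_iff (n := 3) (by norm_num) 2 _).mpr this.coprime_two_left
    exact h5.dvd_of_dvd_mul_right (by rw [card_mul_index]; exact h8)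
  have h6 : (normalizer (Q : Set H)).map H.subtype ≤
      normalizer ((Q.map H.subtype : Subgroup G) : Set G) := le_normalizer_map _
  have h7 : 8 ∣ Nat.card (normalizer ((Q.map H.subtype : Subgroup G) : Set G)) := by
    refine h1.trans ?_
    rw [Nat.card_congr ((normalizer (Q : Set H)).equivMapOfInjective _ H.subtype_injective).toEquiv]
    exact card_dvd_of_le h6
  have hQ' : Nat.card (Q.map H.subtype) = r := by
    rw [← Nat.card_congr (Q.equivMapOfInjective _ H.subtype_injective).toEquiv, hQc]
  rcases card_normalizer_cases hd hc hr' _ hQ' with ⟨-, e⟩ | ⟨-, e⟩ | ⟨-, e⟩ | ⟨-, e | e⟩ | ⟨-, e | e⟩ <;>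
    rw [e] at h7 <;> norm_num at h7

/-- A centralizer whose odd core has 2-power index is a 2-group once eight divides its order. -/
theorem card_eq_two_pow_of_complement (hd : SylowData G) (hc : Nat.card G = 175560) {x : G}
    (h8 : 8 ∣ Nat.card (centralizer ({x} : Set G))) (N : Subgroup (centralizer ({x} : Set G)))
    (hN : N.Normal) (hodd : Odd (Nat.card N)) {k : ℕ} (hidx : N.index = 2 ^ k) :
    Nat.card (centralizer ({x} : Set G)) = 2 ^ k := by
  have hmap := eq_bot_of_odd_normalized hd hc (centralizer ({x} : Set G))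
    (N.map (centralizer ({x} : Set G)).subtype) (map_subtype_le N) ?_ h8 (by
      rwa [← Nat.card_congr (N.equivMapOfInjective _ (centralizer ({x} : Set G)).subtype_injective).toEquiv])
  · rw [map_eq_bot_iff_of_injective _ (centralizer ({x} : Set G)).subtype_injective] at hmap
    rw [← hidx, hmap, index_bot]
  · intro g hg
    rw [← range_subtype (centralizer ({x} : Set G))] at hg
    obtain ⟨g', rfl⟩ := hg
    exact le_normalizer_map _ ⟨g', by rw [normalizer_eq_top_iff.mpr hN]; exact mem_top _, rfl⟩

end Cfsg.Agent.H80.J1Unique
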